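import Mathlib
import Cfsg.Agent.Spor.ModelCo2
import Cfsg.Agent.Comp.OrbDec

/-! The rank three action of `Co₂` on `2300` points. -/

set_option autoImplicit false
set_option maxRecDepth 100000

namespace Cfsg.Agent.CO2T

open Subgroup MulAction Cfsg.Agent.Comp Cfsg.Agent.Spor.ModelCo2

theorem c_orb : Nat.beq (pcN 4096 12 (orb ns G_ss1 20 2)) 1408 = true := by decide +kernel

theorem rank3 {G : Type*} [Group G] [Finite G] (e : G ≃* gen ns G_ss0) :
    ∃ H : Subgroup G, IsCoatom H ∧ H.index = 2300 ∧ ∃ q₁ q₂ : G ⧸ H,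
      (orbit H q₁).ncard = 891 ∧ (orbit H q₂).ncard = 1408 := by
  let _ := MulAction.compHom ℕ ((gen ns G_ss0).subtype.comp e.toMonoidHom)
  have sm : ∀ (g : G) (a : ℕ), g • a = (e g).1 a := fun _ _ => rfl
  have g0 : gen ns G_ss0 = gen ns G_l0.ws := G_eq
  have o0 : orbit G (0 : ℕ) = mset 4096 G_D0 := Set.ext fun i => by
    rw [Finset.mem_coe, ← G_st0.orb, ← g0]
    exact ⟨fun ⟨g, hg⟩ => ⟨_, (e g).2, hg⟩, fun ⟨g, hg, h⟩ => ⟨e.symm ⟨g, hg⟩, by
      simpa [sm] using (show g 0 = i from h)⟩⟩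
  have oH : ∀ a i : ℕ, i ∈ orbit (stabilizer G (0 : ℕ)) a ↔ ∃ g ∈ gen ns G_l1.ws, g a = i := fun a i =>
    ⟨fun ⟨g, hg⟩ => ⟨_, G_st0.stab _ (g0 ▸ (e g).2) g.2, hg⟩, fun ⟨g, hg, h⟩ =>
      ⟨⟨e.symm ⟨g, g0 ▸ G_st0.le hg⟩, by simpa [sm] using (show g 0 = 0 from G_st0.fix g hg)⟩, by
        simpa [smul_def, sm] using h⟩⟩
  have o1 : orbit (stabilizer G (0 : ℕ)) (1 : ℕ) = mset 4096 G_D1 := Set.ext fun i => by
    rw [oH, Finset.mem_coe, ← G_st1.orb]; rfl
  have c0 : (orbit G (0 : ℕ)).ncard = 2300 := by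
    rw [o0, Set.ncard_coe_finset, ← pcN_eq (w := 12) (by norm_num)]; decide +kernel
  have c1 : (orbit (stabilizer G (0 : ℕ)) (1 : ℕ)).ncard = 891 := by
    rw [o1, Set.ncard_coe_finset, ← pcN_eq (w := 12) (by norm_num)]; decide +kernel
  have d := orbDecAt_of_inv (stabilizer G (0 : ℕ)) (orbit G (0 : ℕ)) (Set.finite_range _)
    (fun g _ a ha => mem_orbit_of_mem_orbit g ha)
    (fun a => (decide (a = 0), decide (a ∈ mset 4096 G_D1)))
    (fun g hg a _ => by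
      refine Prod.ext (decide_eq_decide.2 ⟨fun h => smul_left_cancel g (h.trans hg.symm),
        fun h => h ▸ hg⟩) (decide_eq_decide.2 ?_)
      rw [← Finset.mem_coe, ← Finset.mem_coe, ← o1]
      exact ⟨fun h => by
        have := mem_orbit_of_mem_orbit (⟨g, hg⟩ : stabilizer G 0)⁻¹ h
        rwa [show g • a = (⟨g, hg⟩ : stabilizer G 0) • a from rfl, inv_smul_smul] at this,
        mem_orbit_of_mem_orbit (⟨g, hg⟩ : stabilizer G 0)⟩)
    ![0, 1, 2] (by rw [o0]; decide +kernel) (by decide +kernel) ![1, 891, 1408] (fun i => by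
      fin_cases i
      · simp [orbit_stabilizer_self]
      · exact c1.ge
      · refine (Nat.eq_of_beq_eq_true c_orb).ge.trans ?_
        rw [pcN_eq (by norm_num), ← Set.ncard_coe_finset]
        refine Set.ncard_le_ncard (fun i hi => (oH _ _).2 ?_) (Set.finite_range _)
        exact exists_of_orb ctx.ok (fun u hu => wp_mem_gen ns (by revert u; decide))
          (mem_mset.1 hi).1 (mem_mset.1 hi).2) (by rw [c0]; rfl)
  have q : ∀ i, ∃ q : G ⧸ stabilizer G (0 : ℕ),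
      (orbit (stabilizer G (0 : ℕ)) q).ncard = ![1, 891, 1408] i := fun i => by
    obtain ⟨g, hg⟩ := d.mem i
    refine ⟨g, ?_⟩
    rw [← d.card i, ← Set.ncard_image_of_injective _ (injective_ofQuotientStabilizer G (0 : ℕ)), ← hg]
    congr 1
    ext a
    exact ⟨fun ⟨_, ⟨h, rfl⟩, e⟩ => ⟨h, (ofQuotientStabilizer_smul G 0 h.1 g).symm.trans e⟩,
      fun ⟨h, e⟩ => ⟨_, ⟨h, rfl⟩, (ofQuotientStabilizer_smul G 0 h.1 g).trans e⟩⟩
  obtain ⟨q1, h1⟩ := q 1
  obtain ⟨q2, h2⟩ := q 2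
  exact ⟨_, OrbDec.isCoatom ⟨_, d⟩ c0 (by norm_num) (by decide), (index_stabilizer G 0).trans c0,
    q1, q2, h1, h2⟩

end Cfsg.Agent.CO2T
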